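import Mathlib

set_option autoImplicit false

namespace Cfsg.Agent.Lib.Helper9

open Subgroup
open scoped Pointwise

universe u

theorem sup_eq_top_of_corefree {G : Type u} [Group G] {U : Subgroup G} (hU : IsCoatom U)
    (hcore : U.normalCore = ⊥) {K : Subgroup G} (hKn : K.Normal) (hK : K ≠ ⊥) : K ⊔ U = ⊤ := by
  apply hU.2
  refine lt_of_le_of_ne le_sup_right (fun h => hK ?_)
  have hKU : K ≤ U := by rw [h]; exact le_sup_left
  have := (normal_le_normalCore (hN := hKn)).mpr hKU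
  rw [hcore] at this
  exact le_bot_iff.mp this

theorem exists_mul_of_corefree {G : Type u} [Group G] {U : Subgroup G} (hU : IsCoatom U)
    (hcore : U.normalCore = ⊥) {K : Subgroup G} (hKn : K.Normal) (hK : K ≠ ⊥) (g : G) :
    ∃ k ∈ K, ∃ u ∈ U, g = k * u := by
  have h1 : g ∈ K ⊔ U := by rw [sup_eq_top_of_corefree hU hcore hKn hK]; exact mem_top g
  rw [← SetLike.mem_coe, Subgroup.normal_mul] at h1
  obtain ⟨k, hk, u, hu, rfl⟩ := h1
  exact ⟨k, hk, u, hu, rfl⟩

theorem centralizer_inf_eq_bot_of_corefree {G : Type u} [Group G] {U : Subgroup G}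
    (hU : IsCoatom U) (hcore : U.normalCore = ⊥) (N : Subgroup G) [hNn : N.Normal] (hN : N ≠ ⊥) :
    centralizer (N : Set G) ⊓ U = ⊥ := by
  have hn : (centralizer (N : Set G) ⊓ U).Normal := by
    constructor
    intro d hd g
    obtain ⟨n, hn, u, hu, rfl⟩ := exists_mul_of_corefree hU hcore hNn hN g
    have h1 : u * d * u⁻¹ ∈ centralizer (N : Set G) ⊓ U :=
      ⟨(inferInstance : (centralizer (N : Set G)).Normal).conj_mem d hd.1 u,
        U.mul_mem (U.mul_mem hu hd.2) (U.inv_mem hu)⟩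
    have h2 : n * (u * d * u⁻¹) = (u * d * u⁻¹) * n := (mem_centralizer_iff.mp h1.1) n hn
    have h3 : n * u * d * (n * u)⁻¹ = u * d * u⁻¹ := by
      calc n * u * d * (n * u)⁻¹ = (n * (u * d * u⁻¹)) * n⁻¹ := by group
        _ = u * d * u⁻¹ := by rw [h2, mul_inv_cancel_right]
    rw [h3]; exact h1
  have := (normal_le_normalCore (hN := hn)).mpr inf_le_right
  rw [hcore] at this
  exact le_bot_iff.mp this

theorem centralizer_minimal_of_corefree {G : Type u} [Group G] {U : Subgroup G}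
    (hU : IsCoatom U) (hcore : U.normalCore = ⊥) (N : Subgroup G) [hNn : N.Normal] (hN : N ≠ ⊥)
    (K : Subgroup G) (hKn : K.Normal) (hK : K ≤ centralizer (N : Set G)) :
    K = ⊥ ∨ K = centralizer (N : Set G) := by
  by_cases hK0 : K = ⊥
  · exact Or.inl hK0
  · right
    apply le_antisymm hK
    intro c hc
    obtain ⟨k, hk, u, hu, rfl⟩ := exists_mul_of_corefree hU hcore hKn hK0 c
    have hu' : u ∈ centralizer (N : Set G) ⊓ U := by
      refine ⟨?_, hu⟩
      have : u = k⁻¹ * (k * u) := by group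
      rw [this]
      exact Subgroup.mul_mem _ (Subgroup.inv_mem _ (hK hk)) hc
    rw [centralizer_inf_eq_bot_of_corefree hU hcore N hN, mem_bot] at hu'
    rw [hu', mul_one]; exact hk

theorem nonempty_mulEquiv_of_complements_in {G : Type u} [Group G] (X K H₁ H₂ : Subgroup G)
    [K.Normal] (hK : K ≤ X) (h1X : H₁ ≤ X) (h2X : H₂ ≤ X) (d1 : Disjoint H₁ K)
    (d2 : Disjoint H₂ K) (p1 : ∀ x ∈ X, ∃ h ∈ H₁, ∃ k ∈ K, x = h * k)
    (p2 : ∀ x ∈ X, ∃ h ∈ H₂, ∃ k ∈ K, x = h * k) : Nonempty (H₁ ≃* H₂) := by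
  have aux : ∀ H : Subgroup G, H ≤ X → Disjoint H K →
      (∀ x ∈ X, ∃ h ∈ H, ∃ k ∈ K, x = h * k) →
      IsComplement' (H.subgroupOf X) (K.subgroupOf X) := by
    intro H hHX d p
    apply isComplement'_of_disjoint_and_mul_eq_univ
    · rw [disjoint_def]
      intro x hx1 hx2
      rw [mem_subgroupOf] at hx1 hx2
      exact Subtype.ext (disjoint_def.mp d hx1 hx2)
    · rw [Set.eq_univ_iff_forall]
      intro x
      obtain ⟨h, hh, k, hk, hx⟩ := p x x.2
      exact ⟨⟨h, hHX hh⟩, mem_subgroupOf.mpr hh, ⟨k, hK hk⟩, mem_subgroupOf.mpr hk,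
        Subtype.ext hx.symm⟩
  have c1 := aux H₁ h1X d1 p1
  have c2 := aux H₂ h2X d2 p2
  exact ⟨(subgroupOfEquivOfLe h1X).symm.trans
    ((c1.QuotientMulEquiv.symm.trans c2.QuotientMulEquiv).trans (subgroupOfEquivOfLe h2X))⟩

end Cfsg.Agent.Lib.Helper9
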