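import Mathlib

set_option autoImplicit false

namespace Cfsg.Agent.Lib.Helper9

open Subgroup
open scoped commutatorElement

universe u

theorem commutator_le_centralizer_zpowers {Q : Type u} [Group Q] (c : Q)
    (hc : (zpowers c).Normal) : commutator Q ≤ centralizer (zpowers c : Set Q) := by
  rw [commutator_def, Subgroup.commutator_le]
  intro a _ b _
  have key : ∀ a b : Q, a * b * c * (a * b)⁻¹ = b * a * c * (b * a)⁻¹ := by
    intro a b
    obtain ⟨m, hm⟩ := mem_zpowers_iff.mp (hc.conj_mem c (mem_zpowers c) a)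
    obtain ⟨n, hn⟩ := mem_zpowers_iff.mp (hc.conj_mem c (mem_zpowers c) b)
    have h1 : a * b * c * (a * b)⁻¹ = (c ^ m) ^ n := by
      calc a * b * c * (a * b)⁻¹ = a * (b * c * b⁻¹) * a⁻¹ := by group
        _ = a * c ^ n * a⁻¹ := by rw [hn]
        _ = (a * c * a⁻¹) ^ n := by rw [conj_zpow]
        _ = (c ^ m) ^ n := by rw [hm]
    have h2 : b * a * c * (b * a)⁻¹ = (c ^ n) ^ m := by
      calc b * a * c * (b * a)⁻¹ = b * (a * c * a⁻¹) * b⁻¹ := by group
        _ = b * c ^ m * b⁻¹ := by rw [hm]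
        _ = (b * c * b⁻¹) ^ m := by rw [conj_zpow]
        _ = (c ^ n) ^ m := by rw [hn]
    rw [h1, h2, ← zpow_mul, ← zpow_mul, mul_comm]
  rw [mem_centralizer_iff]
  intro h hh
  obtain ⟨k, rfl⟩ := mem_zpowers_iff.mp hh
  have hcomm : Commute ⁅a, b⁆ c := by
    have h3 := key a⁻¹ b⁻¹
    calc ⁅a, b⁆ * c = (a * b * a⁻¹ * b⁻¹) *
          ((b * a) * (a⁻¹ * b⁻¹ * c * (a⁻¹ * b⁻¹)⁻¹) * (b * a)⁻¹) := by
            rw [commutatorElement_def]; group
      _ = (a * b * a⁻¹ * b⁻¹) * ((b * a) * (b⁻¹ * a⁻¹ * c * (b⁻¹ * a⁻¹)⁻¹) * (b * a)⁻¹) := by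
            rw [h3]
      _ = c * ⁅a, b⁆ := by rw [commutatorElement_def]; group
  exact (hcomm.zpow_right k).eq.symm

end Cfsg.Agent.Lib.Helper9
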