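import Mathlib
import Cfsg.Agent.Lib.Helper9.ConjLemmas

set_option autoImplicit false

namespace Cfsg.Agent.Lib.Helper9

open Subgroup
open scoped Pointwise IsMulCommutative

section

variable {G : Type*} [Group G]

/-- The `K`-component of an element of `K A` (junk value `1` outside). -/
noncomputable def gproj (K A : Subgroup G) (g : G) : K := by
  classical
  exact if h : ∃ k : K, (k : G)⁻¹ * g ∈ A then h.choose else 1

theorem gproj_spec (K A : Subgroup G) [K.Normal] {g : G} (hg : g ∈ K ⊔ A) :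
    ((gproj K A g : K) : G)⁻¹ * g ∈ A := by
  have h : ∃ k : K, (k : G)⁻¹ * g ∈ A := by
    obtain ⟨k, hk, a, ha, rfl⟩ := Subgroup.mem_sup_of_normal_left.mp hg
    exact ⟨⟨k, hk⟩, by simpa using ha⟩
  unfold gproj
  rw [dif_pos h]
  exact h.choose_spec

theorem gproj_mul (K A : Subgroup G) [K.Normal] (hAK : A ⊓ K = ⊥) {k a : G} (hk : k ∈ K)
    (ha : a ∈ A) : gproj K A (k * a) = ⟨k, hk⟩ := by
  have hg : k * a ∈ K ⊔ A := Subgroup.mul_mem_sup hk ha
  have h1 := gproj_spec K A hg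
  have h2 : ((gproj K A (k * a) : K) : G)⁻¹ * k ∈ A := by
    have h5 := A.mul_mem h1 (A.inv_mem ha)
    rwa [show ((gproj K A (k * a) : K) : G)⁻¹ * (k * a) * a⁻¹
      = ((gproj K A (k * a) : K) : G)⁻¹ * k by group] at h5
  have h3 : ((gproj K A (k * a) : K) : G)⁻¹ * k ∈ K :=
    K.mul_mem (K.inv_mem (gproj K A (k * a)).2) hk
  have h4 : ((gproj K A (k * a) : K) : G)⁻¹ * k ∈ A ⊓ K := Subgroup.mem_inf.mpr ⟨h2, h3⟩
  rw [hAK, Subgroup.mem_bot] at h4
  apply Subtype.ext
  exact inv_mul_eq_one.mp h4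

theorem gproj_cross (K A : Subgroup G) [hK : K.Normal] [IsMulCommutative K] (hAK : A ⊓ K = ⊥)
    {u v : G} (hu : u ∈ K ⊔ A) (hv : v ∈ K ⊔ A) :
    gproj K A (u * v) = gproj K A u * MulAut.conjNormal u (gproj K A v) := by
  have ha := gproj_spec K A hu
  have ha' := gproj_spec K A hv
  have hw : u * ((gproj K A v : K) : G) * u⁻¹ ∈ K := hK.conj_mem _ (gproj K A v).2 _
  have hkk : ((gproj K A u : K) : G) * (u * ((gproj K A v : K) : G) * u⁻¹) ∈ K :=
    K.mul_mem (gproj K A u).2 hw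
  have hc : ((gproj K A u : K) : G) * (u * ((gproj K A v : K) : G) * u⁻¹)
      = (u * ((gproj K A v : K) : G) * u⁻¹) * ((gproj K A u : K) : G) :=
    congrArg Subtype.val (mul_comm (gproj K A u) ⟨_, hw⟩)
  have e : u * v = (((gproj K A u : K) : G) * (u * ((gproj K A v : K) : G) * u⁻¹)) *
      ((((gproj K A u : K) : G)⁻¹ * u) * (((gproj K A v : K) : G)⁻¹ * v)) := by
    rw [hc]; group
  rw [e, gproj_mul K A hAK hkk (A.mul_mem ha ha')]
  apply Subtype.ext
  rw [Subgroup.coe_mul, MulAut.conjNormal_apply]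

/-- A crossed homomorphism `G → K` which is the `n`-th power map on `K` gives a complement. -/
theorem exists_complement_of_cross [Finite G] (K : Subgroup G) [hK : K.Normal]
    [IsMulCommutative K] (n : ℕ) (hn : (Nat.card K).Coprime n) (δ : G → K)
    (hδ : ∀ x y, δ (x * y) = δ x * MulAut.conjNormal x (δ y))
    (hδK : ∀ k : K, δ k = k ^ n) : ∃ H : Subgroup G, IsComplement' K H := by
  have h1 : δ 1 = 1 := by
    have h2 := hδ 1 1
    rw [mul_one, map_one, MulAut.one_apply] at h2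
    exact (mul_eq_left).mp h2.symm
  let H : Subgroup G :=
    { carrier := {x | δ x = 1}
      one_mem' := h1
      mul_mem' := by
        intro x y hx hy
        rw [Set.mem_ofPred_eq] at hx hy ⊢
        rw [hδ, hx, hy, map_one, mul_one]
      inv_mem' := by
        intro x hx
        rw [Set.mem_ofPred_eq] at hx ⊢
        have h2 := hδ x⁻¹ x
        rw [inv_mul_cancel, h1, hx, map_one, mul_one] at h2
        exact h2.symm }
  have hmem : ∀ x, x ∈ H ↔ δ x = 1 := fun x => Iff.rfl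
  refine ⟨H, isComplement'_of_disjoint_and_mul_eq_univ ?_ ?_⟩
  · rw [disjoint_iff, eq_bot_iff]
    intro k hk
    have hkK := (Subgroup.mem_inf.mp hk).1
    have hkH := (hmem k).mp (Subgroup.mem_inf.mp hk).2
    have h2 := hδK ⟨k, hkK⟩
    rw [hkH] at h2
    have h3 : (⟨k, hkK⟩ : K) = 1 := by
      apply (powCoprime hn).injective
      show (⟨k, hkK⟩ : K) ^ n = 1 ^ n
      rw [← h2, one_pow]
    rw [Subgroup.mem_bot]
    exact congrArg Subtype.val h3
  · rw [Set.eq_univ_iff_forall]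
    intro g
    obtain ⟨k, hk⟩ := (powCoprime hn).surjective (δ g)⁻¹
    have hk' : k ^ n = (δ g)⁻¹ := hk
    have h2 : δ ((k : G) * g) = 1 := by
      rw [hδ, hδK, hk']
      have h3 : MulAut.conjNormal (k : G) (δ g) = δ g := by
        apply Subtype.ext
        rw [MulAut.conjNormal_apply]
        have h4 := congrArg Subtype.val (mul_comm k (δ g))
        rw [Subgroup.coe_mul, Subgroup.coe_mul] at h4
        rw [h4, mul_inv_cancel_right]
      rw [h3, inv_mul_cancel]
    refine ⟨(k : G)⁻¹, K.inv_mem k.2, (k : G) * g, (hmem _).mpr h2, ?_⟩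
    simp

/-- Gaschütz: existence. -/
theorem gaschutz_exists [Finite G] (K U : Subgroup G) [hK : K.Normal] [IsMulCommutative K]
    (hKU : K ≤ U) (hcop : (Nat.card K).Coprime U.index) (A : Subgroup G) (hAK : A ⊓ K = ⊥)
    (hKA : K ⊔ A = U) : ∃ H : Subgroup G, IsComplement' K H := by
  classical
  let _ := Fintype.ofFinite (G ⧸ U)
  have hu : ∀ (x : G) (q : G ⧸ U), (Quotient.out (x • q))⁻¹ * x * Quotient.out q ∈ K ⊔ A := by
    intro x q
    rw [hKA, mul_assoc, ← QuotientGroup.eq, QuotientGroup.out_eq']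
    have h1 : ((x * Quotient.out q : G) : G ⧸ U) = x • (QuotientGroup.mk (Quotient.out q) : G ⧸ U) :=
      rfl
    rw [h1, QuotientGroup.out_eq']
  let F : G → G ⧸ U → K := fun x q =>
    MulAut.conjNormal (Quotient.out (x • q))
      (gproj K A ((Quotient.out (x • q))⁻¹ * x * Quotient.out q))
  have hF : ∀ (x y : G) (q : G ⧸ U),
      F (x * y) q = F x (y • q) * MulAut.conjNormal x (F y q) := by
    intro x y q
    have e1 : (Quotient.out ((x * y) • q))⁻¹ * (x * y) * Quotient.out q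
        = ((Quotient.out (x • y • q))⁻¹ * x * Quotient.out (y • q)) *
          ((Quotient.out (y • q))⁻¹ * y * Quotient.out q) := by
      rw [mul_smul]; group
    show MulAut.conjNormal (Quotient.out ((x * y) • q))
        (gproj K A ((Quotient.out ((x * y) • q))⁻¹ * (x * y) * Quotient.out q))
      = MulAut.conjNormal (Quotient.out (x • y • q))
          (gproj K A ((Quotient.out (x • y • q))⁻¹ * x * Quotient.out (y • q))) *
        MulAut.conjNormal x (MulAut.conjNormal (Quotient.out (y • q))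
          (gproj K A ((Quotient.out (y • q))⁻¹ * y * Quotient.out q)))
    rw [e1, gproj_cross K A hAK (hu x (y • q)) (hu y q), mul_smul, map_mul]
    congr 1
    rw [← MulAut.mul_apply, ← MulAut.mul_apply, ← map_mul, ← map_mul]
    congr 2
    group
  let δ : G → K := fun x => ∏ q : G ⧸ U, F x q
  have hδ : ∀ x y, δ (x * y) = δ x * MulAut.conjNormal x (δ y) := by
    intro x y
    show ∏ q : G ⧸ U, F (x * y) q
      = (∏ q : G ⧸ U, F x q) * MulAut.conjNormal x (∏ q : G ⧸ U, F y q)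
    rw [map_prod, ← Equiv.prod_comp (MulAction.toPerm y) (fun q : G ⧸ U => F x q),
      ← Finset.prod_mul_distrib]
    apply Finset.prod_congr rfl
    intro q _
    exact hF x y q
  have hδK : ∀ k : K, δ k = k ^ U.index := by
    intro k
    have hkq : ∀ q : G ⧸ U, (k : G) • q = q := by
      intro q
      induction q using QuotientGroup.induction_on with
      | H g =>
        rw [MulAction.Quotient.smul_mk, smul_eq_mul, QuotientGroup.eq]
        have h2 : ((k : G) * g)⁻¹ * g = g⁻¹ * (k : G)⁻¹ * g⁻¹⁻¹ := by group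
        rw [h2]
        exact hKU (hK.conj_mem _ (K.inv_mem k.2) _)
    have hFk : ∀ q : G ⧸ U, F (k : G) q = k := by
      intro q
      show MulAut.conjNormal (Quotient.out ((k : G) • q))
        (gproj K A ((Quotient.out ((k : G) • q))⁻¹ * (k : G) * Quotient.out q)) = k
      rw [hkq q]
      have h3 : (Quotient.out q)⁻¹ * (k : G) * Quotient.out q ∈ K := by
        have h4 := hK.conj_mem _ k.2 (Quotient.out q)⁻¹
        rwa [inv_inv] at h4
      have h5 := gproj_mul K A hAK h3 A.one_mem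
      rw [mul_one] at h5
      rw [h5]
      apply Subtype.ext
      rw [MulAut.conjNormal_apply]
      show Quotient.out q * ((Quotient.out q)⁻¹ * (k : G) * Quotient.out q) * (Quotient.out q)⁻¹ = k
      group
    show ∏ q : G ⧸ U, F (k : G) q = k ^ U.index
    rw [Finset.prod_congr rfl (fun q _ => hFk q), Finset.prod_const, Finset.card_univ,
      Subgroup.index, Nat.card_eq_fintype_card]
  exact exists_complement_of_cross K U.index hcop δ hδ hδK

/-- Gaschütz: conjugacy. -/
theorem gaschutz_conj [Finite G] (K U : Subgroup G) [hK : K.Normal] [IsMulCommutative K]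
    (hKU : K ≤ U) (hcop : (Nat.card K).Coprime U.index) (H₀ H₁ : Subgroup G)
    (h₀ : IsComplement' K H₀) (h₁ : IsComplement' K H₁) (hU : H₀ ⊓ U = H₁ ⊓ U) :
    ∃ g : G, MulAut.conj g • H₀ = H₁ := by
  classical
  let _ := Fintype.ofFinite (G ⧸ U)
  have hd₀ : H₀ ⊓ K = ⊥ := by rw [inf_comm]; exact h₀.disjoint.eq_bot
  have hd₁ : H₁ ⊓ K = ⊥ := by rw [inf_comm]; exact h₁.disjoint.eq_bot
  have mem₀ : ∀ g : G, g ∈ K ⊔ H₀ := fun g => by rw [h₀.sup_eq_top]; exact Subgroup.mem_top g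
  have mem₁ : ∀ g : G, g ∈ K ⊔ H₁ := fun g => by rw [h₁.sup_eq_top]; exact Subgroup.mem_top g
  obtain ⟨γ, hγdef⟩ : ∃ γ : G → K, ∀ x, γ x = gproj K H₁ x * (gproj K H₀ x)⁻¹ :=
    ⟨fun x => gproj K H₁ x * (gproj K H₀ x)⁻¹, fun _ => rfl⟩
  have hγmul : ∀ x y, γ (x * y) = γ x * MulAut.conjNormal x (γ y) := by
    intro x y
    rw [hγdef, hγdef, hγdef, gproj_cross K H₁ hd₁ (mem₁ x) (mem₁ y),
      gproj_cross K H₀ hd₀ (mem₀ x) (mem₀ y), map_mul, map_inv, mul_inv, mul_mul_mul_comm]
  have hγU : ∀ u ∈ U, γ u = 1 := by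
    intro u hu
    have h1 := gproj_spec K H₀ (mem₀ u)
    have h2 : ((gproj K H₀ u : K) : G)⁻¹ * u ∈ H₁ := by
      have h3 : ((gproj K H₀ u : K) : G)⁻¹ * u ∈ H₀ ⊓ U :=
        Subgroup.mem_inf.mpr ⟨h1, U.mul_mem (U.inv_mem (hKU (gproj K H₀ u).2)) hu⟩
      rw [hU] at h3; exact (Subgroup.mem_inf.mp h3).1
    have h3 : gproj K H₁ u = gproj K H₀ u := by
      have h4 := gproj_mul K H₁ hd₁ (gproj K H₀ u).2 h2
      rwa [mul_inv_cancel_left] at h4
    rw [hγdef, h3, mul_inv_cancel]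
  have hγcoset : ∀ (g : G) (u : G), u ∈ U → γ (g * u) = γ g := by
    intro g u hu; rw [hγmul, hγU u hu, map_one, mul_one]
  have hprod : ∀ x : G, γ x ^ U.index * MulAut.conjNormal x (∏ q : G ⧸ U, γ (Quotient.out q))
      = ∏ q : G ⧸ U, γ (Quotient.out q) := by
    intro x
    have h1 : ∏ q : G ⧸ U, γ (x * Quotient.out q) = ∏ q : G ⧸ U, γ (Quotient.out q) := by
      rw [← Equiv.prod_comp (MulAction.toPerm x) (fun q : G ⧸ U => γ (Quotient.out q))]
      apply Finset.prod_congr rfl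
      intro q _
      have hmem : (Quotient.out (x • q))⁻¹ * (x * Quotient.out q) ∈ U := by
        rw [← QuotientGroup.eq, QuotientGroup.out_eq']
        have h2 : ((x * Quotient.out q : G) : G ⧸ U)
            = x • (QuotientGroup.mk (Quotient.out q) : G ⧸ U) := rfl
        rw [h2, QuotientGroup.out_eq']
      have h3 := hγcoset (Quotient.out (x • q)) _ hmem
      rw [mul_inv_cancel_left] at h3
      exact h3
    have h2 : ∏ q : G ⧸ U, γ (x * Quotient.out q)
        = γ x ^ U.index * MulAut.conjNormal x (∏ q : G ⧸ U, γ (Quotient.out q)) := by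
      have h3 : ∏ q : G ⧸ U, γ (x * Quotient.out q)
          = ∏ q : G ⧸ U, γ x * MulAut.conjNormal x (γ (Quotient.out q)) :=
        Finset.prod_congr rfl (fun q _ => hγmul x _)
      rw [h3, Finset.prod_mul_distrib, Finset.prod_const, Finset.card_univ, ← map_prod,
        Subgroup.index, Nat.card_eq_fintype_card]
    rw [← h2, h1]
  obtain ⟨e, he⟩ := (powCoprime hcop).surjective (∏ q : G ⧸ U, γ (Quotient.out q))
  have he' : e ^ U.index = ∏ q : G ⧸ U, γ (Quotient.out q) := he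
  have hγe : ∀ x : G, γ x = e * (MulAut.conjNormal x e)⁻¹ := by
    intro x
    apply (powCoprime hcop).injective
    show γ x ^ U.index = (e * (MulAut.conjNormal x e)⁻¹) ^ U.index
    rw [mul_pow, inv_pow, ← map_pow, he', eq_mul_inv_iff_mul_eq]
    exact hprod x
  refine ⟨(e : G)⁻¹, ?_⟩
  have hle : MulAut.conj (e : G)⁻¹ • H₀ ≤ H₁ := by
    intro y hy
    rw [mem_conj_smul_iff, inv_inv] at hy
    have hp0 : gproj K H₀ ((e : G) * y * (e : G)⁻¹) = 1 := by
      have h4 := gproj_mul K H₀ hd₀ K.one_mem hy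
      rw [one_mul] at h4
      rw [h4]; rfl
    have hp1 : gproj K H₁ ((e : G) * y * (e : G)⁻¹)
        = e * (MulAut.conjNormal ((e : G) * y * (e : G)⁻¹) e)⁻¹ := by
      have h4 := hγe ((e : G) * y * (e : G)⁻¹)
      rw [hγdef, hp0, inv_one, mul_one] at h4
      exact h4
    have h1 := gproj_spec K H₁ (mem₁ ((e : G) * y * (e : G)⁻¹))
    rw [hp1] at h1
    have hw : (e : G) * y * (e : G)⁻¹ * (e : G) * ((e : G) * y * (e : G)⁻¹)⁻¹ ∈ K :=
      hK.conj_mem _ e.2 _
    have hc : (e : G)⁻¹ * ((e : G) * y * (e : G)⁻¹ * (e : G) * ((e : G) * y * (e : G)⁻¹)⁻¹)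
        = ((e : G) * y * (e : G)⁻¹ * (e : G) * ((e : G) * y * (e : G)⁻¹)⁻¹) * (e : G)⁻¹ :=
      congrArg Subtype.val (mul_comm e⁻¹ ⟨_, hw⟩)
    have h5 : ((e * (MulAut.conjNormal ((e : G) * y * (e : G)⁻¹) e)⁻¹ : K) : G)⁻¹ *
        ((e : G) * y * (e : G)⁻¹) = y := by
      rw [Subgroup.coe_mul, Subgroup.coe_inv, MulAut.conjNormal_apply]
      calc ((e : G) * ((e : G) * y * (e : G)⁻¹ * (e : G) * ((e : G) * y * (e : G)⁻¹)⁻¹)⁻¹)⁻¹ *
            ((e : G) * y * (e : G)⁻¹)
          = (((e : G) * y * (e : G)⁻¹ * (e : G) * ((e : G) * y * (e : G)⁻¹)⁻¹) * (e : G)⁻¹) *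
            ((e : G) * y * (e : G)⁻¹) := by group
        _ = ((e : G)⁻¹ * ((e : G) * y * (e : G)⁻¹ * (e : G) * ((e : G) * y * (e : G)⁻¹)⁻¹)) *
            ((e : G) * y * (e : G)⁻¹) := by rw [hc]
        _ = y := by group
    rw [h5] at h1
    exact h1
  apply Subgroup.eq_of_le_of_card_ge hle
  rw [card_conj_smul]
  have h6 := h₀.card_mul_card
  have h7 := h₁.card_mul_card
  have h8 : Nat.card K * Nat.card H₁ = Nat.card K * Nat.card H₀ := by rw [h6, h7]
  exact (Nat.eq_of_mul_eq_mul_left Nat.card_pos h8).le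

end

end Cfsg.Agent.Lib.Helper9
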