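import Mathlib

set_option autoImplicit false

namespace Cfsg.Agent.Lib.Helper9

open Subgroup
open scoped commutatorElement

universe u

section
variable {G : Type u} [Group G] {A B : Subgroup G} [IsMulCommutative A] [IsMulCommutative B]

theorem ito_BA (hAB : ∀ g : G, ∃ a ∈ A, ∃ b ∈ B, g = a * b) (g : G) :
    ∃ b ∈ B, ∃ a ∈ A, g = b * a := by
  obtain ⟨a, ha, b, hb, h⟩ := hAB g⁻¹
  exact ⟨b⁻¹, B.inv_mem hb, a⁻¹, A.inv_mem ha, by rw [← mul_inv_rev, ← h, inv_inv]⟩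

theorem ito_conjA (hAB : ∀ g : G, ∃ a ∈ A, ∃ b ∈ B, g = a * b) {a₁ b : G} (ha₁ : a₁ ∈ A)
    (hb : b ∈ B) : ∃ b₂ ∈ B, ∀ a ∈ A, a₁ * ⁅a, b⁆ * a₁⁻¹ = ⁅a, b₂⁆ := by
  obtain ⟨b₂, hb₂, a₂, ha₂, h⟩ := ito_BA hAB (a₁ * b * a₁⁻¹)
  refine ⟨b₂, hb₂, fun a ha => ?_⟩
  have hc1 : a₁ * a = a * a₁ := setLike_mul_comm ha₁ ha
  have hc2 : a₂ * a⁻¹ = a⁻¹ * a₂ := setLike_mul_comm ha₂ (A.inv_mem ha)
  have hc3 : a₁ * a⁻¹ = a⁻¹ * a₁ := setLike_mul_comm ha₁ (A.inv_mem ha)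
  rw [commutatorElement_def, commutatorElement_def]
  calc a₁ * (a * b * a⁻¹ * b⁻¹) * a₁⁻¹ = (a₁ * a) * b * a⁻¹ * b⁻¹ * a₁⁻¹ := by group
    _ = (a * a₁) * b * a⁻¹ * b⁻¹ * a₁⁻¹ := by rw [hc1]
    _ = a * (a₁ * b * a₁⁻¹) * (a₁ * a⁻¹) * b⁻¹ * a₁⁻¹ := by group
    _ = a * (b₂ * a₂) * (a⁻¹ * a₁) * b⁻¹ * a₁⁻¹ := by rw [h, hc3]
    _ = a * b₂ * (a₂ * a⁻¹) * (a₁ * b * a₁⁻¹)⁻¹ := by group
    _ = a * b₂ * (a⁻¹ * a₂) * (b₂ * a₂)⁻¹ := by rw [hc2, h]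
    _ = a * b₂ * a⁻¹ * b₂⁻¹ := by group

theorem ito_conjB (hAB : ∀ g : G, ∃ a ∈ A, ∃ b ∈ B, g = a * b) {a b₁ : G} (ha : a ∈ A)
    (hb₁ : b₁ ∈ B) : ∃ a₃ ∈ A, ∀ b ∈ B, b₁ * ⁅a, b⁆ * b₁⁻¹ = ⁅a₃, b⁆ := by
  obtain ⟨a₃, ha₃, b₃, hb₃, h⟩ := hAB (b₁ * a * b₁⁻¹)
  refine ⟨a₃, ha₃, fun b hb => ?_⟩
  have hc1 : b₁ * b = b * b₁ := setLike_mul_comm hb₁ hb
  have hc2 : b⁻¹ * b₁⁻¹ = b₁⁻¹ * b⁻¹ := setLike_mul_comm (B.inv_mem hb) (B.inv_mem hb₁)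
  have hc3 : b₃ * b = b * b₃ := setLike_mul_comm hb₃ hb
  rw [commutatorElement_def, commutatorElement_def]
  calc b₁ * (a * b * a⁻¹ * b⁻¹) * b₁⁻¹
      = (b₁ * a * b₁⁻¹) * (b₁ * b) * a⁻¹ * (b⁻¹ * b₁⁻¹) := by group
    _ = (b₁ * a * b₁⁻¹) * (b * b₁) * a⁻¹ * (b₁⁻¹ * b⁻¹) := by rw [hc1, hc2]
    _ = (b₁ * a * b₁⁻¹) * b * (b₁ * a * b₁⁻¹)⁻¹ * b⁻¹ := by group
    _ = (a₃ * b₃) * b * (a₃ * b₃)⁻¹ * b⁻¹ := by rw [h]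
    _ = a₃ * (b₃ * b) * b₃⁻¹ * a₃⁻¹ * b⁻¹ := by group
    _ = a₃ * (b * b₃) * b₃⁻¹ * a₃⁻¹ * b⁻¹ := by rw [hc3]
    _ = a₃ * b * a₃⁻¹ * b⁻¹ := by group

theorem ito_key (hAB : ∀ g : G, ∃ a ∈ A, ∃ b ∈ B, g = a * b) {a b α β : G} (ha : a ∈ A)
    (hb : b ∈ B) (hα : α ∈ A) (hβ : β ∈ B) :
    β * α * ⁅a, b⁆ * (β * α)⁻¹ = α * β * ⁅a, b⁆ * (α * β)⁻¹ := by
  obtain ⟨b₂, hb₂, hA⟩ := ito_conjA hAB hα hb
  obtain ⟨a₃, ha₃, hB⟩ := ito_conjB hAB ha hβ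
  have h1 : β * α * ⁅a, b⁆ * (β * α)⁻¹ = ⁅a₃, b₂⁆ := by
    have : β * α * ⁅a, b⁆ * (β * α)⁻¹ = β * (α * ⁅a, b⁆ * α⁻¹) * β⁻¹ := by
      generalize ⁅a, b⁆ = x
      group
    rw [this, hA a ha, hB b₂ hb₂]
  have h2 : α * β * ⁅a, b⁆ * (α * β)⁻¹ = ⁅a₃, b₂⁆ := by
    have : α * β * ⁅a, b⁆ * (α * β)⁻¹ = α * (β * ⁅a, b⁆ * β⁻¹) * α⁻¹ := by
      generalize ⁅a, b⁆ = x
      group
    rw [this, hB b hb, hA a₃ ha₃]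
  rw [h1, h2]

theorem ito_comm (hAB : ∀ g : G, ∃ a ∈ A, ∃ b ∈ B, g = a * b) {a b a₁ b₁ : G} (ha : a ∈ A)
    (hb : b ∈ B) (ha₁ : a₁ ∈ A) (hb₁ : b₁ ∈ B) : ⁅a₁, b₁⁆ * ⁅a, b⁆ = ⁅a, b⁆ * ⁅a₁, b₁⁆ := by
  have key := ito_key hAB ha hb (A.inv_mem ha₁) (B.inv_mem hb₁)
  generalize ⁅a, b⁆ = x at key ⊢
  rw [commutatorElement_def]
  calc a₁ * b₁ * a₁⁻¹ * b₁⁻¹ * x
      = (a₁ * b₁) * (a₁⁻¹ * b₁⁻¹ * x * (a₁⁻¹ * b₁⁻¹)⁻¹) * (a₁ * b₁)⁻¹ * (a₁ * b₁ * a₁⁻¹ * b₁⁻¹) := by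
        group
    _ = (a₁ * b₁) * (b₁⁻¹ * a₁⁻¹ * x * (b₁⁻¹ * a₁⁻¹)⁻¹) * (a₁ * b₁)⁻¹ * (a₁ * b₁ * a₁⁻¹ * b₁⁻¹) := by
        rw [key]
    _ = x * (a₁ * b₁ * a₁⁻¹ * b₁⁻¹) := by group

theorem ito_isMulCommutative (hAB : ∀ g : G, ∃ a ∈ A, ∃ b ∈ B, g = a * b) :
    IsMulCommutative (⁅A, B⁆ : Subgroup G) := by
  rw [Subgroup.commutator_def]
  apply Subgroup.isMulCommutative_closure
  rintro x ⟨a₁, ha₁, b₁, hb₁, rfl⟩ y ⟨a, ha, b, hb, rfl⟩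
  exact ito_comm hAB ha hb ha₁ hb₁

theorem ito_normal (hAB : ∀ g : G, ∃ a ∈ A, ∃ b ∈ B, g = a * b) :
    (⁅A, B⁆ : Subgroup G).Normal := by
  have hAconj : ∀ α ∈ A, ∀ m ∈ (⁅A, B⁆ : Subgroup G), α * m * α⁻¹ ∈ (⁅A, B⁆ : Subgroup G) := by
    intro α hα m hm
    rw [Subgroup.commutator_def] at hm
    induction hm using closure_induction with
    | mem x hx =>
      obtain ⟨a, ha, b, hb, rfl⟩ := hx
      obtain ⟨b₂, hb₂, hA⟩ := ito_conjA hAB hα hb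
      rw [hA a ha]
      exact commutator_mem_commutator ha hb₂
    | one => simp
    | mul x y _ _ ihx ihy =>
      have : α * (x * y) * α⁻¹ = (α * x * α⁻¹) * (α * y * α⁻¹) := by group
      rw [this]; exact mul_mem ihx ihy
    | inv x _ ih =>
      have : α * x⁻¹ * α⁻¹ = (α * x * α⁻¹)⁻¹ := by group
      rw [this]; exact inv_mem ih
  have hBconj : ∀ β ∈ B, ∀ m ∈ (⁅A, B⁆ : Subgroup G), β * m * β⁻¹ ∈ (⁅A, B⁆ : Subgroup G) := by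
    intro β hβ m hm
    rw [Subgroup.commutator_def] at hm
    induction hm using closure_induction with
    | mem x hx =>
      obtain ⟨a, ha, b, hb, rfl⟩ := hx
      obtain ⟨a₃, ha₃, hB⟩ := ito_conjB hAB ha hβ
      rw [hB b hb]
      exact commutator_mem_commutator ha₃ hb
    | one => simp
    | mul x y _ _ ihx ihy =>
      have : β * (x * y) * β⁻¹ = (β * x * β⁻¹) * (β * y * β⁻¹) := by group
      rw [this]; exact mul_mem ihx ihy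
    | inv x _ ih =>
      have : β * x⁻¹ * β⁻¹ = (β * x * β⁻¹)⁻¹ := by group
      rw [this]; exact inv_mem ih
  constructor
  intro m hm g
  obtain ⟨a, ha, b, hb, rfl⟩ := hAB g
  have : a * b * m * (a * b)⁻¹ = a * (b * m * b⁻¹) * a⁻¹ := by group
  rw [this]
  exact hAconj a ha _ (hBconj b hb m hm)

theorem ito_commutator_le (hAB : ∀ g : G, ∃ a ∈ A, ∃ b ∈ B, g = a * b) :
    commutator G ≤ ⁅A, B⁆ := by
  have hn := ito_normal hAB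
  rw [← Subgroup.Normal.quotient_commutative_iff_commutator_le]
  refine ⟨⟨fun x y => ?_⟩⟩
  obtain ⟨g₁, rfl⟩ := QuotientGroup.mk_surjective x
  obtain ⟨g₂, rfl⟩ := QuotientGroup.mk_surjective y
  obtain ⟨a, ha, b, hb, rfl⟩ := hAB g₁
  obtain ⟨a', ha', b', hb', rfl⟩ := hAB g₂
  have hmk : ∀ p ∈ A, ∀ q ∈ B,
      Commute (QuotientGroup.mk' (⁅A, B⁆ : Subgroup G) p) (QuotientGroup.mk' (⁅A, B⁆ : Subgroup G) q) := by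
    intro p hp q hq
    rw [← commutatorElement_eq_one_iff_commute, ← map_commutatorElement,
      QuotientGroup.mk'_apply, QuotientGroup.eq_one_iff]
    exact commutator_mem_commutator hp hq
  have h1 := hmk a ha b' hb'
  have h2 := (hmk a' ha' b hb).symm
  have h3 : Commute (QuotientGroup.mk' (⁅A, B⁆ : Subgroup G) a) (QuotientGroup.mk' (⁅A, B⁆ : Subgroup G) a') := by
    unfold Commute SemiconjBy
    rw [← map_mul, ← map_mul, setLike_mul_comm ha ha']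
  have h4 : Commute (QuotientGroup.mk' (⁅A, B⁆ : Subgroup G) b) (QuotientGroup.mk' (⁅A, B⁆ : Subgroup G) b') := by
    unfold Commute SemiconjBy
    rw [← map_mul, ← map_mul, setLike_mul_comm hb hb']
  have := ((h3.mul_right h1).mul_left (h2.mul_right h4)).eq
  simpa using this

theorem ito_derivedSeries_two (hAB : ∀ g : G, ∃ a ∈ A, ∃ b ∈ B, g = a * b) :
    derivedSeries G 2 = ⊥ := by
  have hcomm := ito_isMulCommutative hAB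
  have hle := ito_commutator_le hAB
  have e : derivedSeries G 2 = ⁅commutator G, commutator G⁆ := by
    rw [← derivedSeries_one]; rfl
  rw [e, ← le_bot_iff]
  calc ⁅commutator G, commutator G⁆ ≤ ⁅(⁅A, B⁆ : Subgroup G), (⁅A, B⁆ : Subgroup G)⁆ :=
        commutator_mono hle hle
    _ = ⊥ := commutator_self_eq_bot_iff.mpr hcomm

end

end Cfsg.Agent.Lib.Helper9
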