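import Mathlib
import Cfsg.Agent.Lib.Helper9.SSInd

set_option autoImplicit false

namespace Cfsg.Agent.Lib.Helper9

open Subgroup
open scoped Pointwise

universe u v

theorem card_comap_of_surjective' {G : Type u} {G' : Type v} [Group G] [Group G'] (f : G →* G')
    (hf : Function.Surjective f) (H' : Subgroup G') :
    Nat.card (H'.comap f) = Nat.card f.ker * Nat.card H' := by
  have hle : f.ker ≤ H'.comap f := by
    rw [← MonoidHom.comap_bot]; exact comap_mono bot_le
  have h1 := Subgroup.relIndex_mul_relIndex ⊥ f.ker (H'.comap f) bot_le hle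
  rw [relIndex_bot_left, relIndex_bot_left, relIndex_ker, map_comap_eq_self_of_surjective hf] at h1
  exact h1.symm

theorem hasSubgroupOfEveryOrder_of_ss : ∀ (n : ℕ) (G : Type u) [Group G] [Finite G],
    Nat.card G = n → Cfsg.IsSupersolvable G → ∀ d : ℕ, d ∣ n → ∃ H : Subgroup G, Nat.card H = d := by
  intro n
  induction n using Nat.strong_induction_on with
  | _ n ih =>
    intro G _ _ hcard hG d hd
    rcases subsingleton_or_nontrivial G with hs | hnt
    · have h1 : n = 1 := by rw [← hcard]; exact Nat.card_unique
      have hd1 : d = 1 := Nat.dvd_one.mp (h1 ▸ hd)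
      exact ⟨⊥, by rw [hd1]; exact Subgroup.card_bot⟩
    · obtain ⟨N, hN, hp⟩ := exists_normal_prime_card hG
      have hq : Cfsg.IsSupersolvable (G ⧸ N) :=
        isSupersolvable_of_surjective (QuotientGroup.mk' N) (QuotientGroup.mk'_surjective N) hG
      have hlt : Nat.card (G ⧸ N) < n := hcard ▸ card_quotient_lt_of_prime_card N hp
      have hmul : Nat.card N * Nat.card (G ⧸ N) = n := by
        rw [← hcard, ← Subgroup.index_eq_card, Subgroup.card_mul_index]
      have hcomap : ∀ H' : Subgroup (G ⧸ N),
          Nat.card (H'.comap (QuotientGroup.mk' N)) = Nat.card N * Nat.card H' := by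
        intro H'
        rw [card_comap_of_surjective' _ (QuotientGroup.mk'_surjective N), QuotientGroup.ker_mk']
      by_cases hpd : Nat.card N ∣ d
      · obtain ⟨d', rfl⟩ := hpd
        have hd' : d' ∣ Nat.card (G ⧸ N) := by
          rw [← hmul] at hd
          exact (Nat.mul_dvd_mul_iff_left hp.pos).mp hd
        obtain ⟨H', hH'⟩ := ih _ hlt (G ⧸ N) rfl hq d' hd'
        exact ⟨H'.comap (QuotientGroup.mk' N), by rw [hcomap, hH']⟩
      · have hcop : Nat.Coprime (Nat.card N) d := (Nat.Prime.coprime_iff_not_dvd hp).mpr hpd
        have hd' : d ∣ Nat.card (G ⧸ N) := by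
          rw [← hmul] at hd
          exact hcop.symm.dvd_of_dvd_mul_left hd
        obtain ⟨H', hH'⟩ := ih _ hlt (G ⧸ N) rfl hq d hd'
        have hNK : N ≤ H'.comap (QuotientGroup.mk' N) := by
          conv_lhs => rw [← QuotientGroup.ker_mk' N, ← MonoidHom.comap_bot]
          exact comap_mono bot_le
        have hKcard : Nat.card (H'.comap (QuotientGroup.mk' N)) = Nat.card N * d := by
          rw [hcomap, hH']
        have hN'card : Nat.card (N.subgroupOf (H'.comap (QuotientGroup.mk' N))) = Nat.card N :=
          Nat.card_congr (Subgroup.subgroupOfEquivOfLe hNK).toEquiv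
        have hidx : (N.subgroupOf (H'.comap (QuotientGroup.mk' N))).index = d := by
          have := Subgroup.card_mul_index (N.subgroupOf (H'.comap (QuotientGroup.mk' N)))
          rw [hN'card, hKcard] at this
          exact Nat.eq_of_mul_eq_mul_left hp.pos this
        obtain ⟨H'', hc⟩ := Subgroup.exists_right_complement'_of_coprime
          (N := N.subgroupOf (H'.comap (QuotientGroup.mk' N))) (by rw [hN'card, hidx]; exact hcop)
        have h3 := hc.card_mul_card
        rw [hN'card, hKcard] at h3
        have hH'' : Nat.card H'' = d := Nat.eq_of_mul_eq_mul_left hp.pos h3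
        exact ⟨H''.map (H'.comap (QuotientGroup.mk' N)).subtype, by
          rw [Subgroup.card_subtype, hH'']⟩

end Cfsg.Agent.Lib.Helper9
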