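import Mathlib
import Cfsg.Agent.Lib.Helper9.Supersolvable
import Cfsg.Agent.Lib.Helper9.SSOrder
import Cfsg.Agent.S0532

set_option autoImplicit false

namespace Cfsg.Agent.Lib.Helper9

open Subgroup

universe u v

/-- In a finite supersolvable group the Sylow subgroup for the largest prime is normal. -/
theorem ss_sylow_normal {G : Type u} [Group G] [Finite G] (hG : Cfsg.IsSupersolvable G) (p : ℕ)
    [Fact p.Prime] (hdvd : p ∣ Nat.card G) (hmax : ∀ q : ℕ, q.Prime → q ∣ Nat.card G → q ≤ p)
    (P : Sylow p G) : (P : Subgroup G).Normal :=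
  Cfsg.Agent.S0532.result
    (fun H => hasSubgroupOfEveryOrder_of_ss _ H rfl (isSupersolvable_subgroup H hG)) p hdvd hmax P

theorem ss_mulEquiv {A : Type u} {B : Type v} [Group A] [Group B] (e : A ≃* B)
    (h : Cfsg.IsSupersolvable A) : Cfsg.IsSupersolvable B :=
  isSupersolvable_of_surjective e.toMonoidHom e.surjective h

end Cfsg.Agent.Lib.Helper9
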