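import Mathlib
import Cfsg.Agent.Lib.Helper9.Wielandt

set_option autoImplicit false

namespace Cfsg.Agent.Lib.Helper9

open Subgroup
open scoped Pointwise

universe u

/-- Relative version of Wielandt's normalizer lemma, inside a subgroup `W`. -/
theorem wielandt_normalizer_rel {G : Type u} [Group G] [Finite G] (W : Subgroup G)
    (S S₀ : Set (Subgroup G)) (hSW : ∀ X ∈ S, X ≤ W)
    (hS : ∀ X ∈ S, (X.subgroupOf W).IsSubnormal)
    (hconj : ∀ X ∈ S, ∀ w ∈ W, MulAut.conj w • X ∈ S) (h₀ : S₀ ⊂ S) :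
    ∃ X ∈ S, X ∉ S₀ ∧ X ≤ normalizer ((sSup S₀ : Subgroup G) : Set G) := by
  obtain ⟨X₁, hX₁S, hX₁⟩ := Set.exists_of_ssubset h₀
  have hT : ∀ Y ∈ {Y : Subgroup W | ∃ X ∈ S, Y = X.subgroupOf W}, Y.IsSubnormal := by
    rintro _ ⟨X, hX, rfl⟩; exact hS X hX
  have hTconj : ∀ Y ∈ {Y : Subgroup W | ∃ X ∈ S, Y = X.subgroupOf W},
      ∀ g : W, MulAut.conj g • Y ∈ {Y : Subgroup W | ∃ X ∈ S, Y = X.subgroupOf W} := by
    rintro _ ⟨X, hX, rfl⟩ g
    exact ⟨MulAut.conj (g : G) • X, hconj X hX g g.2, conj_smul_subgroupOf W X g⟩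
  have hT₀ : {Y : Subgroup W | ∃ X ∈ S₀, Y = X.subgroupOf W}
      ⊂ {Y : Subgroup W | ∃ X ∈ S, Y = X.subgroupOf W} := by
    constructor
    · rintro _ ⟨X, hX, rfl⟩
      exact ⟨X, h₀.subset hX, rfl⟩
    · intro hsub'
      have h1 : X₁.subgroupOf W ∈ {Y : Subgroup W | ∃ X ∈ S₀, Y = X.subgroupOf W} :=
        hsub' ⟨X₁, hX₁S, rfl⟩
      obtain ⟨X, hX, hXeq⟩ := h1
      have h2 : X₁ = X := by
        have h1 := congrArg (Subgroup.map W.subtype) hXeq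
        rwa [map_subgroupOf_eq_of_le (hSW _ hX₁S),
          map_subgroupOf_eq_of_le (hSW _ (h₀.subset hX))] at h1
      exact hX₁ (h2 ▸ hX)
  obtain ⟨Y, hYT, hYT₀, hYn⟩ := wielandt_normalizer _ _ hT hTconj hT₀
  obtain ⟨X, hX, rfl⟩ := hYT
  refine ⟨X, hX, fun h => hYT₀ ⟨X, h, rfl⟩, ?_⟩
  have hmap : (sSup {Y : Subgroup W | ∃ X ∈ S₀, Y = X.subgroupOf W} : Subgroup W).map W.subtype
      = sSup S₀ := by
    apply le_antisymm
    · rw [Subgroup.map_le_iff_le_comap]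
      apply sSup_le
      rintro _ ⟨X', hX', rfl⟩
      rw [← Subgroup.map_le_iff_le_comap, map_subgroupOf_eq_of_le (hSW _ (h₀.subset hX'))]
      exact le_sSup hX'
    · apply sSup_le
      intro X' hX'
      rw [← map_subgroupOf_eq_of_le (hSW _ (h₀.subset hX'))]
      exact Subgroup.map_mono (le_sSup ⟨X', hX', rfl⟩)
  have h1 := (Subgroup.map_mono (f := W.subtype) hYn).trans (Subgroup.le_normalizer_map _)
  rw [map_subgroupOf_eq_of_le (hSW _ hX), hmap] at h1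
  exact h1

end Cfsg.Agent.Lib.Helper9
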